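import Mathlib
import Cfsg.Agent.Lib.Helper55.OOG.Defs
import Cfsg.Agent.Lib.Helper46.OPG.Bridge
import Cfsg.Agent.Lib.Helper14.Forms

/-!
# Project OOG (S2413): package [BRIDGE] — `Ω_{2m+1}(q)` is generated by Siegel transformations

`Helper44.omega_eq_siegelClosure` for `Helper14.oddQF`, transported along `oddQF_coe` (through
the generic transport lemma `Helper46.OPG.omega_le_of_siegel_act`).
-/

set_option autoImplicit false
open scoped Matrix

namespace Cfsg.Agent.Lib.Helper6.OOG

open Cfsg.Agent.Lib.Helper55.OOG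

universe u

/-- In a finite field of odd order, `2 ≠ 0`. -/
theorem two_ne_zero_of_odd_card {F : Type u} [Field F] [Fintype F]
    (hodd : Odd (Fintype.card F)) : (2 : F) ≠ 0 := by
  intro h2
  have hc : ringChar F = 2 := by
    have hd : ringChar F ∣ 2 := by
      have := (ringChar.spec F 2).mp (by exact_mod_cast h2)
      exact this
    have hp : (ringChar F).Prime := CharP.char_is_prime F (ringChar F)
    exact (Nat.prime_dvd_prime_iff_eq hp Nat.prime_two).mp hd
  have := FiniteField.even_card_of_char_two hc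
  rcases hodd with ⟨k, hk⟩
  omega

/-- [BRIDGE] `Ω` is generated by Siegel transformations. -/
theorem pkgBridge : PkgBridge.{u} := by
  intro m F _ _ hodd hm K hK
  have h2 : (2 : F) ≠ 0 := two_ne_zero_of_odd_card hodd
  refine Cfsg.Agent.Lib.Helper46.OPG.omega_le_of_siegel_act (Cfsg.Agent.Lib.Helper14.oddQF m F)
    (Cfsg.Agent.Lib.Helper14.oddQF_nondegenerate m F h2) ?_ (Cfsg.quadFormOdd m F)
    (Cfsg.Agent.Lib.Helper14.oddQF_coe m F) K ?_
  · simp only [Fintype.card_sum, Fintype.card_fin, Fintype.card_unit]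
    omega
  · intro σ u v c hu hv huv hσ
    have hu' : QF m F u = 0 := hu
    have hv' : QF m F v = 0 := hv
    have hBuv : B u v = 0 := huv
    refine hK u (c • v) σ hu' (by rw [B_smul_right, hBuv, mul_zero]) ?_
    intro x
    rw [hσ x]
    have h1 : QuadraticMap.polar (Cfsg.quadFormOdd m F) u x = B x u := by
      rw [B_comm]; rfl
    have h3 : QuadraticMap.polar (Cfsg.quadFormOdd m F) v x = B x v := by
      rw [B_comm]; rfl
    rw [h1, h3, B_smul_right, Q_smul, hv', mul_zero, zero_mul, add_zero, smul_smul, mul_comm c]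
    
end Cfsg.Agent.Lib.Helper6.OOG
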